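import Cfsg.Agent.Chars2.SLDef.Main
import Cfsg.Agent.Linear.Card
import Cfsg.Agent.DegreeGraph.AbelianNormal
import Cfsg.Agent.Chars2.Intertwiner

/-!
The Steinberg character of a projective special linear group.
-/

set_option autoImplicit false
set_option linter.unusedSectionVars false
set_option linter.style.haveILetI false
set_option maxHeartbeats 1000000
set_option synthInstance.maxHeartbeats 200000

namespace Cfsg.Agent.Chars2.SLDef

open Cfsg Cfsg.Agent Cfsg.Agent.Blocks Cfsg.Agent.BlockChar
open scoped Classical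
open scoped MatrixGroups

universe u

variable {F : Type u} [Field F] [Fintype F] {n : ℕ} {p : ℕ} [hp : Fact p.Prime] [CharP F p]
  {M : Ideal AlgInt} [M.IsMaximal]

local notation "SL" => Matrix.SpecialLinearGroup (Fin n) F

theorem hh_apply_fst {i j : Fin n} (hij : i ≠ j) (u : Fˣ) :
    (hh hij u : Matrix (Fin n) (Fin n) F) i i = u := by
  rw [hh, rootHom_apply]
  simp [dg2, hij]

theorem hh_apply_other {i j : Fin n} (hij : i ≠ j) (u : Fˣ) {r : Fin n} (hi : r ≠ i) (hj : r ≠ j) :
    (hh hij u : Matrix (Fin n) (Fin n) F) r r = 1 := by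
  rw [hh]; exact rootHom_apply_diag hij _ hi hj

/-- The simple coroots generate the diagonal subgroup. -/
theorem diag_mem {H : Subgroup SL}
    (h : ∀ (i j : Fin n) (hij : (i : ℕ) + 1 = j) (u : Fˣ), hh (adj_lt hij).ne u ∈ H) {d : SL}
    (hd : d ∈ diagSub F n) : d ∈ H := by
  suffices ∀ k, ∀ d ∈ diagSub F n,
      (∀ r : Fin n, (r : ℕ) + k < n → (d : Matrix (Fin n) (Fin n) F) r r = 1) → d ∈ H from
    this n d hd fun r hr => absurd hr (by omega)
  intro k
  induction k with
  | zero =>
    intro d hd h1
    rw [show d = 1 from Subtype.ext (Matrix.ext fun r c => by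
      by_cases hrc : r = c
      · subst hrc; simpa using h1 r (by simp [r.isLt])
      · simp [hd r c hrc, Matrix.one_apply, hrc])]
    exact one_mem H
  | succ k ih =>
    intro d hd h1
    by_cases hk : k < n
    swap
    · exact ih d hd fun r hr => absurd hr (by omega)
    let i : Fin n := ⟨n - k - 1, by omega⟩
    by_cases hlast : k = 0
    · subst hlast
      refine ih d hd fun r hr => ?_
      by_cases hri : r = i
      · subst hri
        have hdet : ∏ r : Fin n, (d : Matrix (Fin n) (Fin n) F) r r = 1 := by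
          have h2 := d.2
          rw [show (d : Matrix (Fin n) (Fin n) F) =
            Matrix.diagonal (fun r => (d : Matrix (Fin n) (Fin n) F) r r) from
              Matrix.ext fun r c => by
                by_cases hrc : r = c
                · subst hrc; simp
                · simp [Matrix.diagonal_apply_ne _ hrc, hd r c hrc], Matrix.det_diagonal] at h2
          exact h2
        rwa [Finset.prod_eq_single i (fun s _ hs => h1 s (by
          have := Fin.val_ne_of_ne hs
          simp only [i] at this
          have := s.isLt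
          omega)) (by simp)] at hdet
      · exact h1 r (by
          have := Fin.val_ne_of_ne hri
          simp only [i] at this
          omega)
    let j : Fin n := ⟨n - k, by omega⟩
    have hij : (i : ℕ) + 1 = j := by simp only [i, j]; omega
    have hne0 : (d : Matrix (Fin n) (Fin n) F) i i ≠ 0 := by
      simpa using (isMono_diag hd).ne_zero i
    set u := Units.mk0 _ hne0
    have hmem := h i j hij u⁻¹
    have hd' : hh (adj_lt hij).ne u⁻¹ * d ∈ diagSub F n :=
      mul_mem (hh_mem_diagSub _ _) hd
    have := ih _ hd' fun r hr => by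
      rw [Matrix.SpecialLinearGroup.coe_mul,
        (isMono_diag (hh_mem_diagSub _ _)).mul_left_apply,
        show (1 : Equiv.Perm (Fin n)).symm r = r from rfl]
      by_cases hri : r = i
      · subst hri
        rw [hh_apply_fst, ← Units.val_mk0 hne0]
        exact Units.inv_mul u
      · rw [hh_apply_other _ _ hri (fun hrj => by
          rw [hrj] at hr; simp only [j] at hr; omega), one_mul]
        exact h1 r (by
          have := Fin.val_ne_of_ne hri
          simp only [i] at this
          omega)
    have h2 := mul_mem (inv_mem hmem) this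
    rwa [inv_mul_cancel_left] at h2

theorem center_le_diag : Subgroup.center SL ≤ diagSub F n := fun z hz r c h => by
  obtain ⟨a, -, ha⟩ := Matrix.SpecialLinearGroup.mem_center_iff.1 hz
  rw [← ha]
  simp [Matrix.scalar_apply, h]

/-- The character of defect zero is trivial on the centre. -/
theorem defect_zero_center (hn : 2 ≤ n) (hM : IsPModular p M) {χ : IrrCharacter SL}
    (h : ¬ p ∣ Nat.card SL / charDegree (χ : SL → ℂ)) {z : SL} (hz : z ∈ Subgroup.center SL) :
    (χ : SL → ℂ) z = (χ : SL → ℂ) 1 := by
  have hpM := hM.2.2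
  haveI := BlockChar.charP_res hpM
  obtain ⟨d, ρ, hd, h1, htr, hR, hs⟩ := exists_locRep hpM χ.2
  obtain ⟨hm, hpm, hdim⟩ := degree_facts (p := p) h1 h
  obtain ⟨v, htop, -, hdata⟩ := exists_top_vector (k := Res M) p hn (resRep ρ hR)
    (resRep_irr hR hpM hm hpm hd hs) (by rwa [Module.finrank_fin_fun])
  let T : Submonoid SL :=
    { carrier := {g | resRep ρ hR g v = v}
      one_mem' := by simp
      mul_mem' := fun {a b} ha hb => by
        show resRep ρ hR (a * b) v = v
        rw [rho_mul, hb, ha] }
  let H : Subgroup SL :=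
    { T with
      inv_mem' := fun {g} hg => by
        rw [show g⁻¹ = g ^ (orderOf g - 1) from inv_eq_of_mul_eq_one_right (by
          rw [← pow_succ', Nat.sub_add_cancel (orderOf_pos g), pow_orderOf_eq_one])]
        exact T.pow_mem hg _ }
  have hv : resRep ρ hR z v = v :=
    diag_mem (H := H) (fun i j hij u => (hdata i j hij).1 u) (center_le_diag hz)
  obtain ⟨c, hc⟩ := hs (ρ z) fun g => by
    rw [← map_mul, ← map_mul, Subgroup.mem_center_iff.1 hz g]
  have hd0 : (d : ℂ) ≠ 0 := by exact_mod_cast hd.ne'
  have h2 := htr z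
  rw [hc, Matrix.trace_smul, Matrix.trace_one, Fintype.card_fin, smul_eq_mul] at h2
  have hc' : centerHom χ ⟨z, hz⟩ = c := by
    rw [centerHom_apply, centralChar_center χ hz, ← h2, h1, mul_div_cancel_right₀ _ hd0]
  have hZ := not_dvd_card_center (F := F) (p := p) hn
  have hcpow := centerHom_pow χ ⟨z, hz⟩
  rw [hc'] at hcpow
  have hcR : MemLocalRing M c := by
    have := hR z ⟨0, hd⟩ ⟨0, hd⟩
    rwa [hc, Matrix.smul_apply, Matrix.one_apply_eq, smul_eq_mul, mul_one] at this
  have hmat : resMat ρ hR z = res M c • 1 := by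
    ext i j
    show res M (ρ z i j) = _
    rw [hc]
    by_cases hij : i = j
    · subst hij; simp
    · simp [Matrix.one_apply, hij, BlockChar.res_zero]
  have hv0 : v ≠ 0 := fun h0 => by
    haveI : Nontrivial (Fin d → Res M) :=
      Module.nontrivial_of_finrank_pos (R := Res M) (by rwa [Module.finrank_fin_fun])
    have : loSpan (resRep ρ hR) v = ⊥ := by
      rw [loSpan, Submodule.span_eq_bot]
      rintro x ⟨u, rfl⟩
      simp [h0]
    exact bot_ne_top (this.symm.trans htop)
  rw [resRep_apply, hmat, Matrix.smul_mulVec, Matrix.one_mulVec] at hv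
  have hres : res M c = 1 := smul_left_injective (Res M) hv0 (hv.trans (one_smul (Res M) v).symm)
  have hc1 : c = 1 := root_eq_of_memI hpM hZ hcpow (one_pow _) ((res_eq_one_iff hcR).1 hres)
  rw [← h2, hc1, one_mul, h1]

/-- A character of defect zero vanishes on the elements of order divisible by `p`. -/
theorem defect_zero_vanish {G : Type*} [Group G] [Fintype G] (hM : IsPModular p M)
    {χ : IrrCharacter G} (h : ¬ p ∣ Nat.card G / charDegree (χ : G → ℂ)) {g : G}
    (hg : p ∣ orderOf g) : (χ : G → ℂ) g = 0 := by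
  have hB := isPBlock_blockOf (M := M) χ
  rw [(Cfsg.Agent.S0914.result p M hM χ).1 h] at hB
  have h1 := block_orth_weak hM.2.2 hB (x := (1 : G))
    (by rw [orderOf_one]; exact hp.out.not_dvd_one) hg
  simp only [Set.mem_singleton_iff, Finset.filter_eq', Finset.mem_univ, if_true,
    Finset.sum_singleton] at h1
  exact (map_eq_zero _).1 ((mul_eq_zero.1 h1).resolve_left (Chars.irr_apply_one_ne_zero χ.2))

theorem exists_steinberg_PSL (p : ℕ) [Fact p.Prime] [CharP F p] (hn : 2 ≤ n) :
    ∃ χ : Matrix.ProjectiveSpecialLinearGroup (Fin n) F → ℂ,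
      IsIrrCharacter (Matrix.ProjectiveSpecialLinearGroup (Fin n) F) χ ∧
      ∀ P : Sylow p (Matrix.ProjectiveSpecialLinearGroup (Fin n) F), χ 1 = Nat.card P ∧
        ∀ x : Matrix.ProjectiveSpecialLinearGroup (Fin n) F, x ∈ P → x ≠ 1 → χ x = 0 := by
  haveI : NeZero n := ⟨by omega⟩
  obtain ⟨M, hMmax, hpM⟩ := DegreeGraph.exists_isMaximal_mem p
  haveI := hMmax
  have hM : IsPModular p M := ⟨Fact.out, hMmax, hpM⟩
  obtain ⟨θ, hdeg, hθ⟩ := exists_defect_zero (F := F) p hn
  obtain ⟨a, σ, hσ, hσe⟩ := θ.2
  haveI := hσ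
  haveI := nontrivial_of_irreducible σ
  have hker : ∀ z ∈ Subgroup.center SL, σ z = 1 := by
    intro z hz
    obtain ⟨c, hc⟩ := Chars.scalar_of_commute σ (σ z) fun g => by
      rw [← map_mul, ← map_mul, Subgroup.mem_center_iff.1 hz g]
    have h1 := defect_zero_center hn hM hθ hz
    rw [← hσe, Representation.character, hc, map_smul, smul_eq_mul, LinearMap.trace_one,
      Representation.char_one] at h1
    have : c = 1 := by
      apply mul_right_cancel₀ (b := (Module.finrank ℂ (Fin a → ℂ) : ℂ))
        (by exact_mod_cast (Module.finrank_pos (R := ℂ) (M := Fin a → ℂ)).ne')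
      rw [one_mul]; exact h1
    rw [hc, this, one_smul]
  let η : Representation ℂ (Matrix.ProjectiveSpecialLinearGroup (Fin n) F) (Fin a → ℂ) :=
    QuotientGroup.lift (Subgroup.center SL) σ hker
  have hη : η.IsIrreducible := isIrreducible_of_comp (QuotientGroup.mk' (Subgroup.center SL)) η hσ
  refine ⟨η.character, ⟨a, η, hη, rfl⟩, fun P => ?_⟩
  have hval : ∀ y : SL, η.character (QuotientGroup.mk y) = (θ : SL → ℂ) y := fun y => by
    rw [← hσe]; rfl
  have hZ := not_dvd_card_center (F := F) (p := p) hn
  refine ⟨?_, fun x hx hx1 => ?_⟩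
  · rw [← QuotientGroup.mk_one, hval, (charDegree_eq θ.2).1, hdeg]
    congr 1
    rw [P.card_eq_multiplicity]
    obtain ⟨e, -, he⟩ := FiniteField.card F p
    set N := n * (n - 1) / 2
    have hcard := Subgroup.card_eq_card_quotient_mul_card_subgroup (Subgroup.center SL)
    obtain ⟨m, hm⟩ := hdeg ▸ charDegree_dvd θ.2
    rw [hdeg, hm, Nat.mul_div_cancel_left _ (pow_pos Fintype.card_pos N)] at hθ
    have hm0 : m ≠ 0 := fun h0 => hθ (h0 ▸ dvd_zero p)
    have hq0 : Fintype.card F ^ N ≠ 0 := pow_ne_zero _ Fintype.card_ne_zero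
    have h3 := congrArg (fun t => t.factorization p) (hm.symm.trans hcard)
    simp only [Nat.factorization_mul hq0 hm0, Nat.factorization_mul Nat.card_pos.ne' Nat.card_pos.ne',
      Finsupp.add_apply, Nat.factorization_eq_zero_of_not_dvd hθ,
      Nat.factorization_eq_zero_of_not_dvd hZ, add_zero] at h3
    rw [he, ← pow_mul, (Fact.out : p.Prime).factorization_pow, Finsupp.single_eq_same] at h3
    rw [he, ← pow_mul, h3]
  · obtain ⟨y, rfl⟩ := QuotientGroup.mk_surjective x
    rw [hval]
    refine defect_zero_vanish hM hθ ?_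
    obtain ⟨k, hk⟩ := IsPGroup.iff_orderOf.1 P.isPGroup' ⟨_, hx⟩
    rw [Subgroup.orderOf_mk] at hk
    rcases k with _ | k
    · exact absurd (orderOf_eq_one_iff.1 (hk.trans (pow_zero p))) hx1
    · exact ((dvd_pow_self p k.succ_ne_zero).trans (dvd_of_eq hk.symm)).trans
        (orderOf_map_dvd (QuotientGroup.mk' (Subgroup.center SL)) y)

end Cfsg.Agent.Chars2.SLDef
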