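import Cfsg.Agent.Chars2.SLDef.Main
import Cfsg.Agent.Linear.Card

/-!
The three blocks of `SL_2` in odd characteristic.
-/

set_option autoImplicit false
set_option linter.unusedSectionVars false
set_option linter.style.haveILetI false
set_option maxHeartbeats 1000000
set_option synthInstance.maxHeartbeats 200000

namespace Cfsg.Agent.Chars2.SLDef

open Cfsg Cfsg.Agent Cfsg.Agent.Blocks Cfsg.Agent.BlockChar
open scoped Classical
open scoped MatrixGroups

universe u

variable {F : Type u} [Field F] [Fintype F] {p : ℕ} [hp : Fact p.Prime] [CharP F p]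
  {M : Ideal AlgInt} [M.IsMaximal]

local notation "SL₂" => Matrix.SpecialLinearGroup (Fin 2) F

theorem two_ne_zero_F (hp2 : p ≠ 2) : (2 : F) ≠ 0 := fun h => by
  have := (CharP.cast_eq_zero_iff F p 2).1 (by exact_mod_cast h)
  exact hp2 ((Nat.prime_dvd_prime_iff_eq hp.out Nat.prime_two).1 this)

theorem neg_one_ne (hp2 : p ≠ 2) : (-1 : SL₂) ≠ 1 := fun h => by
  have h1 := congrArg (fun g : SL₂ => (g : Matrix (Fin 2) (Fin 2) F) 0 0) h
  simp at h1
  exact two_ne_zero_F (F := F) hp2 (by linear_combination -h1)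

theorem neg_one_center : (-1 : SL₂) ∈ Subgroup.center SL₂ :=
  Subgroup.mem_center_iff.2 fun g => Subtype.ext (by simp)

theorem neg_one_eq_hh : (-1 : SL₂) = hh (zero_ne_one : (0 : Fin 2) ≠ 1) (-1 : Fˣ) := by
  refine Subtype.ext ?_
  ext r c
  rw [hh, rootHom_apply]
  fin_cases r <;> fin_cases c <;> simp [dg2, inv_neg]

theorem center_eq_or (hp2 : p ≠ 2) (z : Subgroup.center SL₂) :
    z = 1 ∨ z = ⟨-1, neg_one_center⟩ := by
  classical
  have hcard : Nat.card (Subgroup.center SL₂) = 2 := by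
    rw [Linear.card_center_SL]
    refine Nat.gcd_eq_left ?_
    obtain ⟨e, -, he⟩ := FiniteField.card F p
    rw [he]
    obtain ⟨t, ht⟩ := (hp.out.odd_of_ne_two hp2).pow (n := (e : ℕ))
    exact ⟨t, by omega⟩
  obtain ⟨y, -, hy⟩ := (Nat.card_eq_two_iff' (1 : Subgroup.center SL₂)).1 hcard
  by_cases hz : z = 1
  · exact Or.inl hz
  · exact Or.inr ((hy z hz).trans (hy _ (fun h => neg_one_ne hp2 (congrArg Subtype.val h))).symm)

theorem centerHom_eq_iff (hp2 : p ≠ 2) {χ χ' : IrrCharacter SL₂} :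
    centerHom χ = centerHom χ' ↔
      (χ : SL₂ → ℂ) (-1) / (χ : SL₂ → ℂ) 1 = (χ' : SL₂ → ℂ) (-1) / (χ' : SL₂ → ℂ) 1 := by
  classical
  have e : ∀ ψ : IrrCharacter SL₂, centerHom ψ ⟨-1, neg_one_center⟩ =
      (ψ : SL₂ → ℂ) (-1) / (ψ : SL₂ → ℂ) 1 := fun ψ => centralChar_center ψ neg_one_center
  constructor
  · intro h; rw [← e, ← e, h]
  · intro h
    refine MonoidHom.ext fun z => ?_
    rcases center_eq_or hp2 z with rfl | rfl
    · rw [map_one, map_one]
    · rw [e, e, h]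

theorem neg_one_or (χ : IrrCharacter SL₂) :
    (χ : SL₂ → ℂ) (-1) = (χ : SL₂ → ℂ) 1 ∨ (χ : SL₂ → ℂ) (-1) = -(χ : SL₂ → ℂ) 1 := by
  classical
  obtain ⟨e, he, hmul⟩ := exists_scalar_center χ neg_one_center
  have h1 := hmul 1
  have h2 := hmul (-1)
  rw [mul_one] at h1
  rw [neg_mul_neg, mul_one, h1, ← mul_assoc] at h2
  have he2 : e * e = 1 := by
    apply mul_right_cancel₀ (Chars.irr_apply_one_ne_zero χ.2)
    rw [one_mul]; exact h2.symm
  rcases mul_self_eq_one_iff.1 he2 with rfl | rfl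
  · exact Or.inl (by rw [h1, one_mul])
  · exact Or.inr (by rw [h1, neg_one_mul])

theorem defect_zero_neg_one (hp2 : p ≠ 2) (hM : IsPModular p M) {χ : IrrCharacter SL₂}
    (h : ¬ p ∣ Nat.card SL₂ / charDegree (χ : SL₂ → ℂ)) :
    (χ : SL₂ → ℂ) (-1) = (χ : SL₂ → ℂ) 1 := by
  classical
  have hpM := hM.2.2
  haveI := BlockChar.charP_res hpM
  refine (neg_one_or χ).resolve_right fun hneg => ?_
  obtain ⟨d, ρ, hd, h1, htr, hR, hs⟩ := exists_locRep hpM χ.2
  obtain ⟨hm, hpm, hdim⟩ := degree_facts (p := p) h1 h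
  obtain ⟨v, htop, -, hdata⟩ := exists_top_vector (k := Res M) p le_rfl (resRep ρ hR)
    (resRep_irr hR hpM hm hpm hd hs) (by rwa [Module.finrank_fin_fun])
  have hv : resRep ρ hR (-1) v = v := by
    rw [neg_one_eq_hh]
    exact (hdata 0 1 rfl).1 (-1)
  obtain ⟨c, hc⟩ := hs (ρ (-1)) fun g => by
    rw [← map_mul, ← map_mul, Subgroup.mem_center_iff.1 neg_one_center g]
  have h2 := htr (-1)
  rw [hc, Matrix.trace_smul, Matrix.trace_one, Fintype.card_fin, smul_eq_mul, hneg, h1] at h2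
  have hd0 : (d : ℂ) ≠ 0 := by exact_mod_cast hd.ne'
  have hc1 : c = -1 := mul_right_cancel₀ hd0 (h2.trans (neg_one_mul _).symm)
  have hv2 : v = -v := by
    conv_lhs => rw [← hv]
    rw [resRep_apply]
    have hmat : resMat ρ hR (-1) = -1 := by
      ext i j
      show res M (ρ (-1) i j) = _
      rw [hc, hc1]
      by_cases hij : i = j
      · subst hij
        have : res M (-1 : ℂ) = -1 := by
          rw [show (-1 : ℂ) = 0 - 1 by ring, BlockChar.res_sub memR_zero memR_one, BlockChar.res_zero,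
            BlockChar.res_one, zero_sub]
        simpa using this
      · simp [Matrix.one_apply, hij, BlockChar.res_zero]
    rw [hmat, Matrix.neg_mulVec, Matrix.one_mulVec]
  have hv0 : v ≠ 0 := fun h0 => by
    haveI : Nontrivial (Fin d → Res M) :=
      Module.nontrivial_of_finrank_pos (R := Res M) (by rwa [Module.finrank_fin_fun])
    have : loSpan (resRep ρ hR) v = ⊥ := by
      rw [loSpan, Submodule.span_eq_bot]
      rintro x ⟨u, rfl⟩
      simp [h0]
    exact bot_ne_top (this.symm.trans htop)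
  have h22 : (2 : Res M) • v = 0 := by
    rw [two_smul]
    nth_rewrite 2 [hv2]
    exact add_neg_cancel v
  refine hv0 ((smul_eq_zero.1 h22).resolve_left fun h2z => ?_)
  have := (CharP.cast_eq_zero_iff (Res M) p 2).1 (by exact_mod_cast h2z)
  exact hp2 ((Nat.prime_dvd_prime_iff_eq hp.out Nat.prime_two).1 this)

theorem not_dvd_of_degree_q {χ : IrrCharacter SL₂}
    (h : (χ : SL₂ → ℂ) 1 = (Fintype.card F : ℂ)) :
    ¬ p ∣ Nat.card SL₂ / charDegree (χ : SL₂ → ℂ) := by
  classical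
  have hc : charDegree (χ : SL₂ → ℂ) = Fintype.card F := by simp [charDegree, h]
  rw [hc, Linear.card_SL_two, Nat.mul_div_cancel_left _ Fintype.card_pos]
  intro hd
  obtain ⟨e, -, he⟩ := FiniteField.card F p
  have hq : p ∣ Fintype.card F ^ 2 := dvd_pow (he ▸ dvd_pow_self p e.ne_zero) two_ne_zero
  have h1 : 1 ≤ Fintype.card F ^ 2 := Nat.one_le_pow _ _ Fintype.card_pos
  have h3 := Nat.dvd_sub hq hd
  rw [show Fintype.card F ^ 2 - (Fintype.card F ^ 2 - 1) = 1 by omega] at h3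
  exact hp.out.not_dvd_one h3

theorem degree_q_of_not_dvd (hM : IsPModular p M) {χ : IrrCharacter SL₂}
    (h : ¬ p ∣ Nat.card SL₂ / charDegree (χ : SL₂ → ℂ)) :
    (χ : SL₂ → ℂ) 1 = (Fintype.card F : ℂ) := by
  classical
  obtain ⟨ψ, hdeg, hψ⟩ := exists_defect_zero (F := F) p (n := 2) le_rfl
  rw [defect_zero_unique le_rfl hM h hψ, (charDegree_eq ψ.2).1, hdeg]
  norm_num

/-- The blocks. -/
theorem blocks_two (hp2 : p ≠ 2) (hM : IsPModular p M) :
    (∀ B : Set (IrrCharacter SL₂), IsPBlock M B ↔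
      (B = {χ : IrrCharacter SL₂ | (χ : SL₂ → ℂ) 1 = (Fintype.card F : ℂ)} ∨
       B = {χ : IrrCharacter SL₂ | (χ : SL₂ → ℂ) (-1) = (χ : SL₂ → ℂ) 1 ∧
          (χ : SL₂ → ℂ) 1 ≠ (Fintype.card F : ℂ)} ∨
       B = {χ : IrrCharacter SL₂ | (χ : SL₂ → ℂ) (-1) = -(χ : SL₂ → ℂ) 1})) ∧
    Nat.card {B : Set (IrrCharacter SL₂) // IsPBlock M B} = 3 ∧
    ∀ P : Sylow p SL₂,
      IsDefectGroup p M {χ : IrrCharacter SL₂ | (χ : SL₂ → ℂ) (-1) = (χ : SL₂ → ℂ) 1 ∧
          (χ : SL₂ → ℂ) 1 ≠ (Fintype.card F : ℂ)} (P : Subgroup SL₂) ∧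
      IsDefectGroup p M {χ : IrrCharacter SL₂ | (χ : SL₂ → ℂ) (-1) = -(χ : SL₂ → ℂ) 1}
        (P : Subgroup SL₂) := by
  classical
  have hpM := hM.2.2
  set S1 := {χ : IrrCharacter SL₂ | (χ : SL₂ → ℂ) 1 = (Fintype.card F : ℂ)} with hS1
  set S2 := {χ : IrrCharacter SL₂ | (χ : SL₂ → ℂ) (-1) = (χ : SL₂ → ℂ) 1 ∧
      (χ : SL₂ → ℂ) 1 ≠ (Fintype.card F : ℂ)} with hS2
  set S3 := {χ : IrrCharacter SL₂ | (χ : SL₂ → ℂ) (-1) = -(χ : SL₂ → ℂ) 1} with hS3
  have hrad := radicalCentral_SL (F := F) (n := 2) (p := p)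
  have hdvd := dvd_card_SL (F := F) (p := p) (n := 2) le_rfl
  have hZ := not_dvd_card_center (F := F) (p := p) (n := 2) le_rfl
  have hfullpos : 0 < (Nat.card SL₂).factorization p :=
    hp.out.factorization_pos_of_dvd Nat.card_pos.ne' hdvd
  have hzero : ∀ {B : Set (IrrCharacter SL₂)}, IsPBlock M B → ∀ χ ∈ B,
      (blockDefect p B = 0 ↔ (χ : SL₂ → ℂ) 1 = (Fintype.card F : ℂ)) := by
    intro B hB χ hχ
    constructor
    · exact fun h => degree_q_of_not_dvd hM (not_dvd_div_of_degree_full (degree_full_of_defect_zero h hχ))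
    · intro h
      have hnd := not_dvd_of_degree_q (p := p) h
      refine (zero_or_full hM hB).resolve_right fun hf => ?_
      have hsing : B = {χ} := (block_eq_of_mem hB hχ).trans ((Cfsg.Agent.S0914.result p M hM χ).1 hnd)
      rw [hsing, blockDefect, Set.image_singleton, csInf_singleton] at hf
      have h2 : (charDegree (χ : SL₂ → ℂ)).factorization p = 0 := by
        have := charDegree_factorization_le (p := p) χ
        omega
      have hc : charDegree (χ : SL₂ → ℂ) = Fintype.card F := by simp [charDegree, h]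
      rw [hc] at h2
      obtain ⟨e, -, he⟩ := FiniteField.card F p
      rw [he, hp.out.factorization_pow, Finsupp.single_eq_same] at h2
      exact e.ne_zero h2
  have hclass : ∀ B : Set (IrrCharacter SL₂), IsPBlock M B → B = S1 ∨ B = S2 ∨ B = S3 := by
    intro B hB
    obtain ⟨χ, hχ⟩ := block_nonempty hB
    by_cases hd : blockDefect p B = 0
    · left
      refine Set.ext fun ψ => ⟨fun hψ => (hzero hB ψ hψ).1 hd, fun hψ => ?_⟩
      have := defect_zero_unique le_rfl hM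
        (not_dvd_of_degree_q (p := p) ((hzero hB χ hχ).1 hd)) (not_dvd_of_degree_q (p := p) hψ)
      exact this ▸ hχ
    · right
      have hf := (zero_or_full hM hB).resolve_left hd
      have hiff : ∀ ψ, ψ ∈ B ↔ (ψ : SL₂ → ℂ) 1 ≠ (Fintype.card F : ℂ) ∧
          (ψ : SL₂ → ℂ) (-1) / (ψ : SL₂ → ℂ) 1 = (χ : SL₂ → ℂ) (-1) / (χ : SL₂ → ℂ) 1 := by
        intro ψ
        constructor
        · intro hψ
          exact ⟨fun h => hd ((hzero hB ψ hψ).2 h),
            (centerHom_eq_iff hp2).1 (centerHom_eq_of_mem hpM hZ hB hψ hχ)⟩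
        · rintro ⟨h1, h2⟩
          have hψB := isPBlock_blockOf (M := M) ψ
          have hfψ := (zero_or_full hM hψB).resolve_left fun h =>
            h1 ((hzero hψB ψ (mem_blockOf_self ψ)).1 h)
          rw [← eq_of_centerHom_eq hpM hrad hdvd hZ hψB hB hfψ hf (mem_blockOf_self ψ) hχ
            ((centerHom_eq_iff hp2).2 h2)]
          exact mem_blockOf_self ψ
      have hne1 := fun ψ : IrrCharacter SL₂ => Chars.irr_apply_one_ne_zero ψ.2
      rcases neg_one_or χ with hsign | hsign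
      · left
        refine Set.ext fun ψ => (hiff ψ).trans ?_
        rw [hsign, div_self (hne1 χ), div_eq_one_iff_eq (hne1 ψ)]
        exact and_comm
      · right
        refine Set.ext fun ψ => (hiff ψ).trans ?_
        rw [hsign, neg_div, div_self (hne1 χ), div_eq_iff (hne1 ψ), neg_one_mul]
        refine ⟨fun h => h.2, fun h => ⟨fun hq => ?_, h⟩⟩
        have h5 := defect_zero_neg_one hp2 hM (not_dvd_of_degree_q (p := p) hq)
        rw [show (ψ : SL₂ → ℂ) (-1) = -(ψ : SL₂ → ℂ) 1 from h] at h5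
        exact hne1 ψ (by linear_combination (-1/2 : ℂ) * h5)
  have hcard : Nat.card {B : Set (IrrCharacter SL₂) // IsPBlock M B} = 3 := by
    rw [card_blocks_SL le_rfl hM]
    obtain ⟨e, -, he⟩ := FiniteField.card F p
    rw [he, Nat.gcd_eq_left]
    obtain ⟨t, ht⟩ := (hp.out.odd_of_ne_two hp2).pow (n := (e : ℕ))
    exact ⟨t, by omega⟩
  haveI : Finite (IrrCharacter SL₂) := Chars.irr_finite
  have hset : {B : Set (IrrCharacter SL₂) | IsPBlock M B} = {S1, S2, S3} := by
    refine Set.eq_of_subset_of_ncard_le (fun B hB => ?_) ?_ (Set.toFinite _)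
    · rcases hclass B hB with h | h | h <;> simp [h]
    · rw [← Nat.card_coe_set_eq {B : Set (IrrCharacter SL₂) | IsPBlock M B}]
      refine le_trans ?_ hcard.ge
      refine (Set.ncard_insert_le _ _).trans ?_
      have := Set.ncard_insert_le S2 ({S3} : Set (Set (IrrCharacter SL₂)))
      rw [Set.ncard_singleton] at this
      omega
  have hiff : ∀ B, IsPBlock M B ↔ (B = S1 ∨ B = S2 ∨ B = S3) := fun B => by
    have := Set.ext_iff.1 hset B
    simpa using this
  refine ⟨hiff, hcard, fun P => ?_⟩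
  have hS2B : IsPBlock M S2 := (hiff S2).2 (Or.inr (Or.inl rfl))
  have hS3B : IsPBlock M S3 := (hiff S3).2 (Or.inr (Or.inr rfl))
  obtain ⟨χ2, h2⟩ := block_nonempty hS2B
  obtain ⟨χ3, h3⟩ := block_nonempty hS3B
  refine ⟨isDefectGroup_sylow hpM hS2B ((zero_or_full hM hS2B).resolve_left fun h =>
      h2.2 ((hzero hS2B χ2 h2).1 h)) P,
    isDefectGroup_sylow hpM hS3B ((zero_or_full hM hS3B).resolve_left fun h => ?_) P⟩
  have hq := (hzero hS3B χ3 h3).1 h
  have h5 := defect_zero_neg_one hp2 hM (not_dvd_of_degree_q (p := p) hq)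
  rw [show (χ3 : SL₂ → ℂ) (-1) = -(χ3 : SL₂ → ℂ) 1 from h3] at h5
  exact Chars.irr_apply_one_ne_zero χ3.2 (by linear_combination (-1/2 : ℂ) * h5)

end Cfsg.Agent.Chars2.SLDef
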